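import Cfsg.Agent.Lib.Coprime.Generation
import Mathlib.GroupTheory.Schreier
import Mathlib.GroupTheory.SemidirectProduct

/-!
# Index bounds under a coprime action, and Dietzmann's bound
-/

set_option autoImplicit false

namespace Cfsg.Lib.BFC

open Subgroup Cfsg.Lib.Coprime
open scoped commutatorElement

variable {X : Type*} [Group X] [Finite X]

theorem rel_ne (H K : Subgroup X) : H.relIndex K ≠ 0 := FiniteIndex.index_ne_zero

omit [Finite X] in
theorem idx_le {H K : Subgroup X} {T : Type*} [Finite T] (f : K → T)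
    (hf : ∀ y z : K, f y = f z → (y : X)⁻¹ * z ∈ H) : H.relIndex K ≤ Nat.card T := by
  refine Nat.card_le_card_of_injective (fun q : K ⧸ H.subgroupOf K => f q.out) fun q r e => ?_
  rw [← q.out_eq', ← r.out_eq', QuotientGroup.eq]
  exact hf _ _ e

/-- Dietzmann's bound. -/
def dz (t e : ℕ) : ℕ := t ^ t * (t ^ t * e) ^ (t ^ t * t)

theorem dietz {M : Type*} [Group M] [Finite M] (T : Set M) (hT : closure T = ⊤) {t e : ℕ}
    (ht : Nat.card T ≤ t) (t0 : 0 < t) (e0 : 0 < e) (he : ∀ x ∈ T, x ^ e = 1)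
    (hc : ∀ x ∈ T, ∀ y, y * x * y⁻¹ ∈ T) : Nat.card M ≤ dz t e := by
  have := Fintype.ofFinite T
  have h1 : (center M).index ≤ t ^ t := by
    have h2 : (⨅ x : T, centralizer {(x : M)}) ≤ center M := fun z hz => by
      have : closure T ≤ centralizer {z} := (closure_le _).2 fun x hx =>
        mem_centralizer_singleton_iff.2
          (mem_centralizer_singleton_iff.1 (mem_iInf.1 hz ⟨x, hx⟩)).symm
      exact mem_center_iff.2 fun g =>
        mem_centralizer_singleton_iff.1 (this (hT ▸ mem_top g))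
    refine (Nat.le_of_dvd (Nat.pos_of_ne_zero FiniteIndex.index_ne_zero)
      (index_dvd_of_le h2)).trans ((index_iInf_le _).trans ?_)
    refine (Finset.prod_le_pow_card _ _ t fun x _ => ?_).trans (Nat.pow_le_pow_right t0 ?_)
    · rw [← relIndex_top_right]
      refine (idx_le (T := T) (fun y => ⟨_, hc x x.2 y⟩) fun y z h => ?_).trans ht
      have h3 : (y : M) * x * (y : M)⁻¹ = z * x * (z : M)⁻¹ := congrArg Subtype.val h
      rw [mem_centralizer_singleton_iff]
      calc (y : M)⁻¹ * z * x = (y : M)⁻¹ * (z * x * (z : M)⁻¹) * z := by group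
        _ = _ := by rw [← h3]; group
    · rwa [Finset.card_univ, ← Nat.card_eq_fintype_card]
  have h2 : ∀ g : M, g ^ ((center M).index * e) = 1 := fun g => by
    have h3 : g ∈ closure T := hT ▸ mem_top g
    induction h3 using closure_induction with
    | mem x hx => rw [mul_comm, pow_mul, he x hx, one_pow]
    | one => exact one_pow _
    | mul x y _ _ hx hy =>
      have h4 : (x * y) ^ (center M).index = x ^ (center M).index * y ^ (center M).index :=
        congrArg Subtype.val ((MonoidHom.transferCenterPow M).map_mul x y)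
      have h5 : Commute (x ^ (center M).index) (y ^ (center M).index) :=
        mem_center_iff.1 ((center M).pow_index_mem y) _
      rw [pow_mul, h4, h5.mul_pow, ← pow_mul, ← pow_mul, hx, hy, one_mul]
    | inv x _ hx => rw [inv_pow, hx, inv_one]
  have h3 : Nat.card (center M) ∣ ((center M).index * e) ^ Group.rank (center M) :=
    by
      let _ : CommGroup (center M) := { (inferInstance : Group (center M)) with
        mul_comm := fun a b => Subtype.ext (mem_center_iff.1 b.2 a) }
      exact card_dvd_exponent_pow_rank' (center M) fun g => Subtype.ext (h2 g)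
  have h4 : Group.rank M ≤ t := by
    rw [← Group.rank_congr topEquiv, ← rank_congr hT]
    exact (rank_closure_finite_le_nat_card T).trans ht
  have i0 : 0 < (center M).index := Nat.pos_of_ne_zero FiniteIndex.index_ne_zero
  rw [← (center M).index_mul_card]
  refine Nat.mul_le_mul h1 ((Nat.le_of_dvd (by positivity) h3).trans ?_)
  exact (Nat.pow_le_pow_left (Nat.mul_le_mul_right _ h1) _).trans (Nat.pow_le_pow_right
    (by positivity) ((rank_le_index_mul_rank _).trans (Nat.mul_le_mul h1 h4)))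

/-- A family of `A`-invariant subgroups of `K` whose traces generate every `A`-invariant subgroup. -/
structure Fam (A K : Subgroup X) {ι : Type*} (c : ι → Subgroup X) : Prop where
  nK : A ≤ normalizer (K : Set X)
  cop : (Nat.card A).Coprime (Nat.card K)
  sol : Group.IsSolvable A
  le : ∀ i, c i ≤ K
  nc : ∀ i, A ≤ normalizer (c i : Set X)
  gen : ∀ Y H : Subgroup X, Y ≤ K → A ≤ normalizer (Y : Set X) → (∀ i, Y ⊓ c i ≤ H) → Y ≤ H

variable {A K : Subgroup X} {ι : Type*} [Fintype ι] {c : ι → Subgroup X}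

theorem Fam.pidx (h : Fam A K c) {p : ℕ} [Fact p.Prime] {P : Subgroup X} (hP : IsPGroup p P)
    (hPK : P ≤ K) (hPA : A ≤ normalizer (P : Set X)) (Y : Subgroup X) (hY : Y ≤ P)
    (hYA : A ≤ normalizer (Y : Set X)) : Y.relIndex P ≤ ∏ i, Y.relIndex (P ⊓ c i) := by
  classical
  induction Y using WellFoundedGT.induction with | ind Y ih
  rcases hY.eq_or_lt with rfl | hlt
  · rw [relIndex_self]
    exact Finset.one_le_prod' fun i _ => Nat.pos_of_ne_zero (rel_ne _ _)
  have h1 := Transfer.lt_inf_normalizer_of_lt hP hlt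
  set N := P ⊓ normalizer (Y : Set X) with hN
  have hNA : A ≤ normalizer (N : Set X) := le_normalizer_inf hPA (le_normalizer_normalizer hYA)
  obtain ⟨j, hj⟩ : ∃ j, ¬ N ⊓ c j ≤ Y := by
    by_contra hc
    push Not at hc
    exact h1.not_ge (h.gen N Y (inf_le_left.trans hPK) hNA hc)
  have h2 : Y ⊔ N ⊓ c j ≤ N := sup_le h1.le inf_le_left
  have h3 := ih (Y ⊔ N ⊓ c j) (left_lt_sup.2 hj) (h2.trans inf_le_left)
    (le_normalizer_sup hYA (le_normalizer_inf hNA (h.nc j)))
  have h4 : (Y ⊔ N ⊓ c j) ⊓ (P ⊓ c j) = N ⊓ c j :=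
    le_antisymm (inf_le_inf h2 inf_le_right)
      (le_inf le_sup_right (inf_le_inf_right _ inf_le_left))
  have h5 := relIndex_inf_mul_relIndex Y (Y ⊔ N ⊓ c j) (P ⊓ c j)
  rw [h4, inf_of_le_left (le_sup_left : Y ≤ Y ⊔ N ⊓ c j)] at h5
  rw [← relIndex_mul_relIndex Y _ P le_sup_left (h2.trans inf_le_left),
    relIndex_sup_of_le_normalizer (inf_le_left.trans inf_le_right),
    ← Finset.mul_prod_erase _ _ (Finset.mem_univ j), ← h5, mul_assoc]
  refine Nat.mul_le_mul_left _ (h3.trans ?_)
  rw [← Finset.mul_prod_erase _ _ (Finset.mem_univ j)]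
  exact Nat.mul_le_mul_left _ (Finset.prod_le_prod' fun i _ =>
    relIndex_le_of_le_left le_sup_left (rel_ne _ _))

theorem Fam.idx (h : Fam A K c) {H : Subgroup X} (hH : A ≤ normalizer (H : Set X)) {N : ℕ}
    (hN : ∏ i, H.relIndex (c i) ≤ N) : H.relIndex K ≤ N.factorial := by
  refine Nat.le_of_dvd (Nat.factorial_pos _) ((Nat.dvd_iff_prime_pow_dvd_dvd _ _).2
    fun p k hp hk => ?_)
  have := Fact.mk hp
  obtain ⟨U, u1, u2, u3, u4⟩ := exists_invariant_sylowIn p (K := H ⊓ K)
    (le_normalizer_inf hH h.nK) (h.cop.coprime_dvd_right (card_dvd_of_le inf_le_right))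
    (Or.inl h.sol)
  obtain ⟨P, p0, p1, p2, p3, p4⟩ := exists_invariant_sylowIn_ge h.nK h.cop (Or.inl h.sol)
    (u1.trans inf_le_right) u2 u4
  have h1 : U = H ⊓ P := Transfer.eq_of_not_dvd_relIndex_of_le u3 p2.to_inf_right
    (inf_le_inf_left _ p1) (le_inf (u1.trans inf_le_left) p0)
  have h2 : p ^ k ∣ U.relIndex P := by
    refine (Nat.Coprime.pow_left k ((hp.coprime_iff_not_dvd).2 p3)).dvd_of_dvd_mul_right ?_
    rw [relIndex_mul_relIndex U P K p0 p1]
    exact hk.trans (relIndex_dvd_of_le_left _ (u1.trans inf_le_left))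
  refine Nat.dvd_factorial (pow_pos hp.pos _) ((Nat.le_of_dvd (Nat.pos_of_ne_zero (rel_ne _ _))
    h2).trans ((h.pidx p2 p1 p4 U p0 u4).trans (le_trans (Finset.prod_le_prod' fun i _ => ?_) hN)))
  rw [h1, ← inf_relIndex_right, inf_assoc, ← inf_assoc P, inf_idem, inf_relIndex_right]
  exact relIndex_le_of_le_right inf_le_right (rel_ne _ _)

end Cfsg.Lib.BFC
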