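import Cfsg.Agent.Lib.BFC.Idx

/-!
# Bounded derived subgroups of fixed points
-/

set_option autoImplicit false

namespace Cfsg.Lib.BFC

open Subgroup Cfsg.Lib.Coprime
open scoped commutatorElement

variable {X : Type*} [Group X] [Finite X] {A K : Subgroup X} {ι : Type*} [Fintype ι]
  {c : ι → Subgroup X} {m a s : ℕ}

/-- The elements of `K` commuting with `y` modulo `M`. -/
def cz (K M : Subgroup X) (hK : K ≤ normalizer (M : Set X)) (y : X) : Subgroup X where
  carrier := {x | x ∈ K ∧ ⁅x, y⁆ ∈ M}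
  one_mem' := ⟨K.one_mem, by rw [commutatorElement_one_left]; exact M.one_mem⟩
  mul_mem' := fun {u v} hu hv => ⟨K.mul_mem hu.1 hv.1, by
    rw [show ⁅u * v, y⁆ = u * ⁅v, y⁆ * u⁻¹ * ⁅u, y⁆ by simp only [commutatorElement_def]; group]
    exact M.mul_mem ((mem_normalizer_iff.1 (hK hu.1) _).1 hv.2) hu.2⟩
  inv_mem' := fun {u} hu => ⟨K.inv_mem hu.1, by
    rw [show ⁅u⁻¹, y⁆ = u⁻¹ * ⁅u, y⁆⁻¹ * u by simp only [commutatorElement_def]; group]
    exact conj_mem_of_mem_normalizer' (hK hu.1) (M.inv_mem hu.2)⟩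

theorem Fam.elt (h : Fam A K c) (D : ι → ι → Subgroup X) (hD : ∀ i j, Nat.card (D i j) ≤ m)
    (hc : ∀ i j, ⁅c i, c j⁆ ≤ D i j) (m0 : 0 < m) (ha : Nat.card A ≤ a) (hs : Fintype.card ι ≤ s)
    {i : ι} {x : X} (hx : x ∈ c i) :
    (centralizer {x}).relIndex K ≤ ((m ^ a) ^ s).factorial := by
  have := Fintype.ofFinite A
  have h1 : ∀ y ∈ c i, ∀ j, (centralizer {y}).relIndex (c j) ≤ m := fun y hy j => by
    refine (idx_le (T := D j i) (fun z => ⟨⁅(z : X), y⁆,
      hc j i (commutator_mem_commutator z.2 hy)⟩) fun z w e => ?_).trans (hD j i)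
    have h3 : ⁅(z : X), y⁆ = ⁅(w : X), y⁆ := congrArg Subtype.val e
    simp only [commutatorElement_def, mul_left_inj] at h3
    rw [mem_centralizer_singleton_iff]
    calc (z : X)⁻¹ * w * y = (z : X)⁻¹ * (w * y * (w : X)⁻¹) * w := by group
      _ = _ := by rw [← h3]; group
  have h2 : (⨅ b : A, centralizer {(b : X) * x * (b : X)⁻¹}) ≤ centralizer {x} := by
    simpa using iInf_le (fun b : A => centralizer {(b : X) * x * (b : X)⁻¹}) 1
  refine (relIndex_le_of_le_left h2 (rel_ne _ _)).trans (h.idx ?_ ?_)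
  · rw [le_normalizer_iff]
    intro b hb z hz
    refine mem_iInf.2 fun d => mem_centralizer_singleton_iff.2 ?_
    have h3 := mem_centralizer_singleton_iff.1 (mem_iInf.1 hz ⟨b⁻¹ * d, A.mul_mem (A.inv_mem hb) d.2⟩)
    calc b * z * b⁻¹ * (d * x * (d : X)⁻¹) = b * (z * (b⁻¹ * d * x * (b⁻¹ * d)⁻¹)) * b⁻¹ := by group
      _ = _ := by rw [h3]; group
  · refine (Finset.prod_le_pow_card _ _ (m ^ a) fun j _ => (relIndex_iInf_le _).trans ?_).trans
      (Nat.pow_le_pow_right (by positivity) hs)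
    refine (Finset.prod_le_pow_card _ _ m fun b _ => h1 _ ?_ j).trans (Nat.pow_le_pow_right m0 ?_)
    · exact (mem_normalizer_iff.1 (h.nc i b.2) x).1 hx
    · rwa [Finset.card_univ, ← Nat.card_eq_fintype_card]

/-- The bound. -/
def bd (m a s : ℕ) : ℕ :=
  dz (((m ^ a) ^ s).factorial ^ (s * s * m) * (s * s * m) + 1) m.factorial

theorem Fam.comm (h : Fam A K c) (D : ι → ι → Subgroup X) (hD : ∀ i j, Nat.card (D i j) ≤ m)
    (hc : ∀ i j, ⁅c i, c j⁆ ≤ D i j) (hK : ∀ i j, D i j ≤ K)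
    (hA : ∀ i j, A ≤ normalizer (D i j : Set X)) (m0 : 0 < m) (ha : Nat.card A ≤ a)
    (hs : Fintype.card ι ≤ s) : Nat.card (⁅K, K⁆ : Subgroup X) ≤ bd m a s := by
  classical
  set S : Set X := {d | ∃ i j, d ∈ D i j} with hS
  have h1 : Nat.card S ≤ s * s * m := by
    refine (Nat.card_le_card_of_surjective (fun p : Σ p : ι × ι, D p.1 p.2 =>
      (⟨p.2, p.1.1, p.1.2, p.2.2⟩ : S)) fun ⟨d, i, j, hd⟩ => ⟨⟨(i, j), d, hd⟩, rfl⟩).trans ?_
    rw [Nat.card_sigma]
    refine (Finset.sum_le_card_nsmul _ _ m fun p _ => hD _ _).trans ?_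
    rw [Finset.card_univ, Fintype.card_prod, smul_eq_mul]
    exact Nat.mul_le_mul_right _ (Nat.mul_le_mul hs hs)
  set n := ((m ^ a) ^ s).factorial with hn
  have n0 : 0 < n := Nat.factorial_pos _
  have := Fintype.ofFinite {x : S // ∃ i, (x : X) ∈ c i}
  set E := ⨅ x : {x : S // ∃ i, (x : X) ∈ c i}, centralizer {((x : S) : X)} with hE
  have h2 : E.relIndex K ≤ n ^ (s * s * m) := by
    refine (relIndex_iInf_le _).trans ((Finset.prod_le_pow_card _ _ n fun x _ => ?_).trans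
      (Nat.pow_le_pow_right n0 ?_))
    · exact x.2.elim fun i hi => h.elt D hD hc m0 ha hs hi
    · rw [Finset.card_univ, ← Nat.card_eq_fintype_card]
      exact (Finite.card_subtype_le _).trans h1
  have h3 : ∀ d ∈ S, ∀ e ∈ E, e * d = d * e := fun d ⟨i, j, hd⟩ e he =>
    h.gen (D i j) (centralizer E) (hK i j) (hA i j) (fun k x hx y hy =>
      mem_centralizer_singleton_iff.1 (mem_iInf.1 hy ⟨⟨x, i, j, hx.1⟩, k, hx.2⟩)) hd e he
  set T : Set X := {x | ∃ k ∈ K, ∃ d ∈ S, x = k * d * k⁻¹} with hT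
  have h4 : Nat.card T ≤ n ^ (s * s * m) * (s * s * m) := by
    refine (Nat.card_le_card_of_surjective (fun p : (K ⧸ E.subgroupOf K) × S =>
      (⟨_, p.1.out, p.1.out.2, p.2, p.2.2, rfl⟩ : T)) ?_).trans ?_
    · rintro ⟨_, k, hk, d, hd, rfl⟩
      refine ⟨(((⟨k, hk⟩ : K) : K ⧸ E.subgroupOf K), ⟨d, hd⟩), Subtype.ext ?_⟩
      obtain ⟨e, he⟩ := QuotientGroup.mk_out_eq_mul (E.subgroupOf K) ⟨k, hk⟩
      have h5 := h3 d hd _ e.2
      simp only [he, coe_mul]
      calc k * (e : K) * d * (k * (e : K))⁻¹ = k * ((e : K) * d) * ((e : K) : X)⁻¹ * k⁻¹ := by group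
        _ = _ := by rw [show ((e : K) : X) * d = d * (e : K) from h5]; group
    · rw [Nat.card_prod]
      exact Nat.mul_le_mul h2 h1
  have h5 : ∀ k ∈ K, ∀ x ∈ T, k * x * k⁻¹ ∈ T := by
    rintro k hk _ ⟨l, hl, d, hd, rfl⟩
    exact ⟨k * l, K.mul_mem hk hl, d, hd, by group⟩
  have h6 : closure T ≤ K := (closure_le _).2 (by
    rintro _ ⟨l, hl, d, ⟨i, j, hd⟩, rfl⟩
    exact K.mul_mem (K.mul_mem hl (hK i j hd)) (K.inv_mem hl))
  have h7 : K ≤ normalizer (closure T : Set X) := by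
    rw [le_normalizer_iff]
    intro k hk x hx
    exact (closure_le ((closure T).comap (MulAut.conj k).toMonoidHom)).2
      (fun y hy => subset_closure (h5 k hk y hy)) hx
  have h8 : ⁅K, K⁆ ≤ closure T := by
    refine commutator_le.2 fun x hx y hy => ?_
    refine (h.gen K (cz K _ h7 y) le_rfl h.nK (fun i u hu => ⟨hu.1, ?_⟩) hx).2
    rw [← inv_mem_iff, commutatorElement_inv]
    refine (h.gen K (cz K _ h7 u) le_rfl h.nK (fun j v hv => ⟨hv.1, subset_closure ?_⟩) hy).2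
    exact ⟨1, K.one_mem, _, ⟨j, i, hc j i (commutator_mem_commutator hv.2 hu.2)⟩, by group⟩
  refine (card_le_of_le h8).trans (dietz ((closure T).subtype ⁻¹' T)
    (closure_preimage_eq_top T) ?_ (Nat.succ_pos _) (Nat.factorial_pos _) ?_ ?_)
  · refine le_trans (Nat.card_le_card_of_injective (fun x => (⟨x.1.1, x.2⟩ : T)) fun x y e => ?_)
      (h4.trans (Nat.le_succ _))
    exact Subtype.ext (Subtype.ext (congrArg (fun z : T => (z : X)) e))
  · rintro ⟨_, hx⟩ ⟨k, hk, d, ⟨i, j, hd⟩, rfl⟩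
    refine Subtype.ext ?_
    have h9 : d ^ m.factorial = 1 := orderOf_dvd_iff_pow_eq_one.1 ((orderOf_dvd_natCard _ hd).trans
      (Nat.dvd_factorial Nat.card_pos (hD i j)))
    change (k * d * k⁻¹) ^ m.factorial = 1
    rw [conj_pow, h9, mul_one, mul_inv_cancel]
  · exact fun x hx y => h5 y (h6 y.2) x hx

/-- Ambient form of the theorem. -/
theorem amb {q : ℕ} (hq : q.Prime) (hA : IsElementaryAbelian q A) (hc : Nat.card A = q ^ 3)
    (hK : A ≤ normalizer (K : Set X)) (cop : (Nat.card A).Coprime (Nat.card K))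
    (hm : ∀ b ∈ A, b ≠ 1 →
      Nat.card (⁅K ⊓ centralizer {b}, K ⊓ centralizer {b}⁆ : Subgroup X) ≤ m) :
    Nat.card (⁅K, K⁆ : Subgroup X) ≤ bd m (q ^ 3) (2 ^ q ^ 3) := by
  classical
  let J := {B : Subgroup X // B ≤ A ∧ B.relIndex A ∣ q}
  have := Fintype.ofFinite J
  have hn : ∀ s : Set X, s ⊆ A → A ≤ normalizer ((K ⊓ centralizer s : Subgroup X) : Set X) :=
    fun s hs => le_normalizer_inf hK (by
      rw [le_normalizer_iff]
      intro b hb z hz y hy
      have h1 : ∀ u ∈ A, u * y = y * u := fun u hu =>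
        congrArg Subtype.val (hA.1.is_comm.comm (⟨u, hu⟩ : A) ⟨y, hs hy⟩)
      calc y * (b * z * b⁻¹) = (y * b) * z * b⁻¹ := by group
        _ = b * (y * z) * b⁻¹ := by rw [← h1 b hb]; group
        _ = b * z * (y * b⁻¹) := by rw [hz y hy]; group
        _ = _ := by rw [← h1 _ (A.inv_mem hb)]; group)
  have hp : ∀ i j : J, ∃ b ∈ i.1 ⊓ j.1, b ≠ 1 := fun i j => by
    by_contra h0
    push Not at h0
    have h1 := relIndex_inf_le (H := i.1) (K := j.1) (L := A)
    rw [eq_bot_iff_forall _ |>.2 h0, relIndex_bot_left, hc] at h1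
    have h2 := h1.trans (Nat.mul_le_mul (Nat.le_of_dvd hq.pos i.2.2) (Nat.le_of_dvd hq.pos j.2.2))
    rw [← pow_two, Nat.pow_le_pow_iff_right hq.one_lt] at h2
    omega
  choose b hb b1 using hp
  have h : Fam A K fun i : J => K ⊓ centralizer (i.1 : Set X) :=
    ⟨hK, cop, isSolvable_of_isMulCommutative hA.1, fun _ => inf_le_left, fun i => hn _ i.2.1,
      fun Y H hY hYA hH => le_of_forall_hyperplane hA hYA
        (cop.coprime_dvd_right (card_dvd_of_le hY)) fun B h1 h2 =>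
          (le_inf inf_le_left (inf_le_inf_right _ hY)).trans (hH ⟨B, h1, h2⟩)⟩
  have i0 : J := ⟨A, le_rfl, by simp⟩
  have hbA : ∀ i j, b i j ∈ A := fun i j => i.2.1 (hb i j).1
  refine h.comm (fun i j => ⁅K ⊓ centralizer {b i j}, K ⊓ centralizer {b i j}⁆)
    (fun i j => hm _ (hbA i j) (b1 i j)) (fun i j => commutator_mono
      (inf_le_inf_left _ (centralizer_le (Set.singleton_subset_iff.2 (hb i j).1)))
      (inf_le_inf_left _ (centralizer_le (Set.singleton_subset_iff.2 (hb i j).2))))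
    (fun i j => (commutator_mono inf_le_left inf_le_left).trans (commutator_le_self K))
    (fun i j => le_normalizer_commutator (hn _ (Set.singleton_subset_iff.2 (hbA i j)))
      (hn _ (Set.singleton_subset_iff.2 (hbA i j))))
    (Nat.card_pos.trans_le (hm _ (hbA i0 i0) (b1 i0 i0))) hc.le ?_
  have := Fintype.ofFinite A
  rw [← Nat.card_eq_fintype_card, ← hc, Nat.card_eq_fintype_card (α := A), ← Fintype.card_set,
    ← Nat.card_eq_fintype_card]
  refine Nat.card_le_card_of_injective (fun i : J => ((i.1.subgroupOf A : Subgroup A) : Set A))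
    fun i j e => Subtype.ext ?_
  rw [← map_subgroupOf_eq_of_le i.2.1, ← map_subgroupOf_eq_of_le j.2.1, SetLike.coe_injective e]

end Cfsg.Lib.BFC
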